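import Mathlib

/-!
# S1421 piece PEA (helper32): assembling the abelian normal subgroup and a full-exponent subgroup

`assemble_ab`: for every prime `p` of a set `π`, `E` has a normal abelian Sylow `p`-subgroup `P`
with a cyclic subgroup `Y ≤ P`, normal in `E`, of order the exponent of `P` and avoiding the set
`NR`; the elements of `NR` lie in `E`, are `≠ 1`, have `π`-orders, and `NR` is closed under
nontrivial powers.  Then `A₀ = ∏ P` is an abelian normal subgroup of `E` containing `NR`, and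
`E₀ = (∏ Y) H`, `H` a complement of `A₀` in `E` (Schur–Zassenhaus), has the exponent of `E` and
avoids `NR`.
-/

set_option autoImplicit false
set_option linter.style.haveILetI false

namespace Cfsg.Agent.Lib.Helper32.BG12PEA

section aux

variable {Γ : Type*} [Group Γ]

theorem eq_one_of_mem_two {p q : ℕ} (hp : p.Prime) (hq : q.Prime) (hpq : p ≠ q)
    (P Q : Subgroup Γ) (hP : IsPGroup p P) (hQ : IsPGroup q Q) (g : Γ) (h1 : g ∈ P)
    (h2 : g ∈ Q) : g = 1 := by
  obtain ⟨k, hk⟩ := hP ⟨g, h1⟩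
  obtain ⟨l, hl⟩ := hQ ⟨g, h2⟩
  have hk' : g ^ p ^ k = 1 := by simpa using congrArg Subtype.val hk
  have hl' : g ^ q ^ l = 1 := by simpa using congrArg Subtype.val hl
  have hd := Nat.dvd_gcd (orderOf_dvd_of_pow_eq_one hk') (orderOf_dvd_of_pow_eq_one hl')
  have hc : Nat.Coprime (p ^ k) (q ^ l) := Nat.Coprime.pow _ _ ((Nat.coprime_primes hp hq).2 hpq)
  rw [hc.gcd_eq_one, Nat.dvd_one] at hd
  exact orderOf_eq_one_iff.1 hd

theorem conj_mem_closure (S : Set Γ) (g : Γ)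
    (hS : ∀ x ∈ S, g * x * g⁻¹ ∈ Subgroup.closure S) :
    ∀ a ∈ Subgroup.closure S, g * a * g⁻¹ ∈ Subgroup.closure S := by
  intro a ha
  induction ha using Subgroup.closure_induction with
  | mem x hx => exact hS x hx
  | one => simp
  | mul x y _ _ hx hy =>
    have e : g * (x * y) * g⁻¹ = (g * x * g⁻¹) * (g * y * g⁻¹) := by group
    rw [e]
    exact Subgroup.mul_mem _ hx hy
  | inv x _ hx =>
    have e : g * x⁻¹ * g⁻¹ = (g * x * g⁻¹)⁻¹ := by group
    rw [e]
    exact Subgroup.inv_mem _ hx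

theorem le_normalizer_of_conj_mem (M V : Subgroup Γ)
    (h : ∀ m ∈ M, ∀ v ∈ V, m * v * m⁻¹ ∈ V) : M ≤ Subgroup.normalizer (V : Set Γ) := by
  intro m hm
  rw [Subgroup.mem_normalizer_iff]
  intro v
  constructor
  · exact h m hm v
  · intro hv
    have h1 := h m⁻¹ (M.inv_mem hm) _ hv
    rw [inv_inv] at h1
    have e : m⁻¹ * (m * v * m⁻¹) * m = v := by group
    rwa [e] at h1

theorem mem_sup_of_le_normalizer (Y H : Subgroup Γ)
    (hH : H ≤ Subgroup.normalizer (Y : Set Γ)) :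
    ∀ x ∈ Y ⊔ H, ∃ y ∈ Y, ∃ h ∈ H, x = y * h := by
  intro x hx
  rw [← Subgroup.closure_eq Y, ← Subgroup.closure_eq H, ← Subgroup.closure_union] at hx
  induction hx using Subgroup.closure_induction with
  | mem x hx =>
    rcases hx with hx | hx
    · exact ⟨x, hx, 1, H.one_mem, (mul_one x).symm⟩
    · exact ⟨1, Y.one_mem, x, hx, (one_mul x).symm⟩
  | one => exact ⟨1, Y.one_mem, 1, H.one_mem, (mul_one 1).symm⟩
  | mul a b _ _ iha ihb =>
    obtain ⟨y1, hy1, h1, hh1, rfl⟩ := iha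
    obtain ⟨y2, hy2, h2, hh2, rfl⟩ := ihb
    exact ⟨y1 * (h1 * y2 * h1⁻¹),
      Y.mul_mem hy1 ((Subgroup.mem_normalizer_iff.1 (hH hh1) y2).1 hy2), h1 * h2,
      H.mul_mem hh1 hh2, by group⟩
  | inv a _ iha =>
    obtain ⟨y1, hy1, h1, hh1, rfl⟩ := iha
    exact ⟨h1⁻¹ * y1⁻¹ * h1⁻¹⁻¹,
      (Subgroup.mem_normalizer_iff.1 (hH (H.inv_mem hh1)) y1⁻¹).1 (Y.inv_mem hy1), h1⁻¹,
      H.inv_mem hh1, by group⟩

/-- powers of a product modulo a normalised subgroup -/
theorem pow_mul_mem (N : Subgroup Γ) (z h : Γ) (hz : z ∈ N)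
    (hh : h ∈ Subgroup.normalizer (N : Set Γ)) (n : ℕ) :
    ∃ z' ∈ N, (z * h) ^ n = z' * h ^ n := by
  induction n with
  | zero => exact ⟨1, N.one_mem, by simp⟩
  | succ n ih =>
    obtain ⟨z', hz', e⟩ := ih
    have hn : h ^ n ∈ Subgroup.normalizer (N : Set Γ) := Subgroup.pow_mem _ hh n
    refine ⟨z' * (h ^ n * z * (h ^ n)⁻¹), N.mul_mem hz' ((Subgroup.mem_normalizer_iff.1 hn z).1 hz),
      ?_⟩
    rw [pow_succ, e, pow_succ]
    group

theorem not_dvd_orderOf_mul {x y : Γ} (hc : Commute x y) {r : ℕ} (hr : r.Prime)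
    (hx : ¬ r ∣ orderOf x) (hy : ¬ r ∣ orderOf y) : ¬ r ∣ orderOf (x * y) := by
  intro h
  have h1 := h.trans hc.orderOf_mul_dvd_lcm
  have h2 := h1.trans (Nat.lcm_dvd_mul _ _)
  rcases (Nat.Prime.dvd_mul hr).1 h2 with h3 | h3
  · exact hx h3
  · exact hy h3

end aux

/-- **S1421/PEA.** -/
theorem assemble_ab {Γ : Type*} [Group Γ] [Finite Γ] (E : Subgroup Γ) (π : Set ℕ) (NR : Set Γ)
    (hNR1 : ∀ e ∈ NR, e ∈ E) (hNR0 : (1 : Γ) ∉ NR)
    (hNRpow : ∀ e ∈ NR, ∀ k : ℕ, e ^ k ≠ 1 → e ^ k ∈ NR)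
    (hNRπ : ∀ e ∈ NR, ∀ r : ℕ, r.Prime → r ∣ orderOf e → r ∈ π)
    (hπ : ∀ p ∈ π, p.Prime)
    (h : ∀ p ∈ π, ∃ P Y : Subgroup Γ, P ≤ E ∧ IsPGroup p P ∧
        (∀ x ∈ E, (∃ k : ℕ, x ^ p ^ k = 1) → x ∈ P) ∧
        E ≤ Subgroup.normalizer (P : Set Γ) ∧ (∀ a ∈ P, ∀ b ∈ P, a * b = b * a) ∧
        Y ≤ P ∧ IsCyclic Y ∧ E ≤ Subgroup.normalizer (Y : Set Γ) ∧
        (∀ x ∈ P, x ^ Nat.card Y = 1) ∧ ∀ y ∈ Y, y ∉ NR) :
    (∃ A₀ : Subgroup Γ, A₀ ≤ E ∧ E ≤ Subgroup.normalizer (A₀ : Set Γ) ∧ IsMulCommutative A₀ ∧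
        ∀ e ∈ NR, e ∈ A₀) ∧
      ∃ E₀ : Subgroup Γ, E₀ ≤ E ∧ Monoid.exponent E₀ = Monoid.exponent E ∧ ∀ e ∈ E₀, e ∉ NR := by
  classical
  choose! P Y hPY using h
  have hPE : ∀ p ∈ π, P p ≤ E := fun p hp => (hPY p hp).1
  have hPp : ∀ p ∈ π, IsPGroup p (P p) := fun p hp => (hPY p hp).2.1
  have hPall : ∀ p ∈ π, ∀ x ∈ E, (∃ k : ℕ, x ^ p ^ k = 1) → x ∈ P p :=
    fun p hp => (hPY p hp).2.2.1
  have hPn : ∀ p ∈ π, E ≤ Subgroup.normalizer (P p : Set Γ) := fun p hp => (hPY p hp).2.2.2.1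
  have hPc : ∀ p ∈ π, ∀ a ∈ P p, ∀ b ∈ P p, a * b = b * a := fun p hp => (hPY p hp).2.2.2.2.1
  have hYP : ∀ p ∈ π, Y p ≤ P p := fun p hp => (hPY p hp).2.2.2.2.2.1
  have hYc : ∀ p ∈ π, IsCyclic (Y p) := fun p hp => (hPY p hp).2.2.2.2.2.2.1
  have hYn : ∀ p ∈ π, E ≤ Subgroup.normalizer (Y p : Set Γ) :=
    fun p hp => (hPY p hp).2.2.2.2.2.2.2.1
  have hYexp : ∀ p ∈ π, ∀ x ∈ P p, x ^ Nat.card (Y p) = 1 :=
    fun p hp => (hPY p hp).2.2.2.2.2.2.2.2.1
  have hYNR : ∀ p ∈ π, ∀ y ∈ Y p, y ∉ NR := fun p hp => (hPY p hp).2.2.2.2.2.2.2.2.2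
  clear hPY
  -- the generating sets
  have hcommS : ∀ x ∈ {x : Γ | ∃ p ∈ π, x ∈ P p}, ∀ y ∈ {x : Γ | ∃ p ∈ π, x ∈ P p},
      x * y = y * x := by
    rintro x ⟨p, hp, hx⟩ y ⟨q, hq, hy⟩
    by_cases hpq : p = q
    · subst hpq
      exact hPc p hp x hx y hy
    · have hxE := hPE p hp hx
      have hyE := hPE q hq hy
      have h1 : x * y * x⁻¹ * y⁻¹ ∈ P p := by
        have h2 : y * x⁻¹ * y⁻¹ ∈ P p :=
          (Subgroup.mem_normalizer_iff.1 (hPn p hp hyE) x⁻¹).1 ((P p).inv_mem hx)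
        have e : x * y * x⁻¹ * y⁻¹ = x * (y * x⁻¹ * y⁻¹) := by group
        rw [e]
        exact (P p).mul_mem hx h2
      have h2 : x * y * x⁻¹ * y⁻¹ ∈ P q := by
        have h3 : x * y * x⁻¹ ∈ P q := (Subgroup.mem_normalizer_iff.1 (hPn q hq hxE) y).1 hy
        exact (P q).mul_mem h3 ((P q).inv_mem hy)
      have h3 := eq_one_of_mem_two (hπ p hp) (hπ q hq) hpq (P p) (P q) (hPp p hp) (hPp q hq) _ h1 h2
      calc x * y = (x * y * x⁻¹ * y⁻¹) * (y * x) := by group
        _ = y * x := by rw [h3, one_mul]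
  generalize hSP : {x : Γ | ∃ p ∈ π, x ∈ P p} = SP at hcommS
  have hPSP : ∀ p ∈ π, ∀ x ∈ P p, x ∈ SP := by
    intro p hp x hx
    rw [← hSP]
    exact ⟨p, hp, hx⟩
  have hSPmem : ∀ x ∈ SP, ∃ p ∈ π, x ∈ P p := by
    intro x hx
    rw [← hSP] at hx
    exact hx
  haveI hA₀c : IsMulCommutative (Subgroup.closure SP) := Subgroup.isMulCommutative_closure hcommS
  have hA₀E : Subgroup.closure SP ≤ E := by
    rw [Subgroup.closure_le]
    intro x hx
    obtain ⟨p, hp, hxp⟩ := hSPmem x hx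
    exact hPE p hp hxp
  have hA₀n : E ≤ Subgroup.normalizer ((Subgroup.closure SP : Subgroup Γ) : Set Γ) := by
    apply le_normalizer_of_conj_mem
    intro g hg a ha
    apply conj_mem_closure SP g _ a ha
    intro x hx
    obtain ⟨p, hp, hxp⟩ := hSPmem x hx
    exact Subgroup.subset_closure
      (hPSP p hp _ ((Subgroup.mem_normalizer_iff.1 (hPn p hp hg) x).1 hxp))
  -- `π`-elements of `E` lie in `A₀`
  have hπelt : ∀ n : ℕ, ∀ x ∈ E, orderOf x = n → (∀ r : ℕ, r.Prime → r ∣ n → r ∈ π) →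
      x ∈ Subgroup.closure SP := by
    intro n
    induction n using Nat.strong_induction_on with
    | _ n ih =>
      intro x hxE hxn hprimes
      by_cases hn1 : n = 1
      · rw [hn1, orderOf_eq_one_iff] at hxn
        rw [hxn]
        exact Subgroup.one_mem _
      · obtain ⟨r, hr, hrn⟩ := Nat.exists_prime_and_dvd hn1
        have hrπ := hprimes r hr hrn
        have hn0 : n ≠ 0 := by
          rw [← hxn]
          exact (orderOf_pos x).ne'
        obtain ⟨k, m, hrm, hnkm⟩ := Nat.exists_eq_pow_mul_and_not_dvd hn0 r hr.ne_one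
        have hm0 : m ≠ 0 := by
          rintro rfl
          exact hrm (dvd_zero r)
        have hk0 : k ≠ 0 := by
          rintro rfl
          rw [pow_zero, one_mul] at hnkm
          rw [hnkm] at hrn
          exact hrm hrn
        have h1 : x ^ m ∈ Subgroup.closure SP := by
          apply Subgroup.subset_closure
          refine hPSP r hrπ _ (hPall r hrπ _ (E.pow_mem hxE m) ⟨k, ?_⟩)
          rw [← pow_mul, mul_comm, ← hnkm, ← hxn, pow_orderOf_eq_one]
        have h2 : x ^ (r ^ k) ∈ Subgroup.closure SP := by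
          have hord : orderOf (x ^ r ^ k) = m := by
            rw [orderOf_pow_of_dvd (pow_ne_zero k hr.ne_zero) (by rw [hxn, hnkm]; exact dvd_mul_right _ _),
              hxn, hnkm, Nat.mul_div_cancel_left m (pow_pos hr.pos k)]
          apply ih m ?_ _ (E.pow_mem hxE _) hord ?_
          · rw [hnkm]
            have h2k : 2 ≤ r ^ k := le_trans hr.two_le (Nat.le_self_pow hk0 r)
            have hmpos : 0 < m := Nat.pos_of_ne_zero hm0
            nlinarith
          · intro q hq hqm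
            exact hprimes q hq (hnkm ▸ Dvd.dvd.mul_left hqm _)
        have hcop : Nat.Coprime (r ^ k) m :=
          Nat.Coprime.pow_left k ((Nat.Prime.coprime_iff_not_dvd hr).2 hrm)
        have hb : IsCoprime ((r ^ k : ℕ) : ℤ) (m : ℤ) := Nat.isCoprime_iff_coprime.2 hcop
        obtain ⟨u, v, huv⟩ := hb
        have e : x = (x ^ (r ^ k)) ^ u * (x ^ m) ^ v := by
          rw [← zpow_natCast x (r ^ k), ← zpow_natCast x m, ← zpow_mul, ← zpow_mul, ← zpow_add,
            mul_comm _ u, mul_comm _ v, huv, zpow_one]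
        rw [e]
        exact Subgroup.mul_mem _ (Subgroup.zpow_mem _ h2 u) (Subgroup.zpow_mem _ h1 v)
  have hNRA : ∀ e ∈ NR, e ∈ Subgroup.closure SP :=
    fun e he => hπelt (orderOf e) e (hNR1 e he) rfl (hNRπ e he)
  refine ⟨⟨Subgroup.closure SP, hA₀E, hA₀n, hA₀c, hNRA⟩, ?_⟩
  -- orders of the elements of `A₀`
  have hA₀π : ∀ x ∈ Subgroup.closure SP, ∀ r : ℕ, r.Prime → r ∣ orderOf x → r ∈ π := by
    intro x hx
    induction hx using Subgroup.closure_induction with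
    | mem x hx =>
      obtain ⟨p, hp, hxp⟩ := hSPmem x hx
      intro r hr hrx
      obtain ⟨k, hk⟩ := hPp p hp ⟨x, hxp⟩
      have hk' : x ^ p ^ k = 1 := by simpa using congrArg Subtype.val hk
      have h1 : r ∣ p ^ k := hrx.trans (orderOf_dvd_of_pow_eq_one hk')
      have h2 : r ∣ p := hr.dvd_of_dvd_pow h1
      rw [(Nat.prime_dvd_prime_iff_eq hr (hπ p hp)).1 h2]
      exact hp
    | one =>
      intro r hr h1
      rw [orderOf_one] at h1
      exact absurd (Nat.dvd_one.1 h1) hr.ne_one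
    | mul x y hx hy ihx ihy =>
      intro r hr hrxy
      by_contra hrπ
      exact not_dvd_orderOf_mul (setLike_mul_comm hx hy) hr (fun h => hrπ (ihx r hr h))
        (fun h => hrπ (ihy r hr h)) hrxy
    | inv x hx ih =>
      intro r hr h
      rw [orderOf_inv] at h
      exact ih r hr h
  -- a complement of `A₀` in `E`
  haveI hNn : ((Subgroup.closure SP).subgroupOf E).Normal :=
    (Subgroup.normal_subgroupOf_iff_le_normalizer hA₀E).2 hA₀n
  have hcop : Nat.Coprime (Nat.card ((Subgroup.closure SP).subgroupOf E))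
      ((Subgroup.closure SP).subgroupOf E).index := by
    apply Nat.coprime_of_dvd
    intro r hr hrN hrI
    haveI : Fact r.Prime := ⟨hr⟩
    obtain ⟨x, hx⟩ := exists_prime_orderOf_dvd_card' r hrN
    have hrπ : r ∈ π := by
      apply hA₀π ((x : E) : Γ) (Subgroup.mem_subgroupOf.1 x.2) r hr
      rw [Subgroup.orderOf_coe, Subgroup.orderOf_coe, hx]
    obtain ⟨S⟩ : Nonempty (Sylow r E) := inferInstance
    have hSN : (S : Subgroup E) ≤ (Subgroup.closure SP).subgroupOf E := by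
      intro y hy
      rw [Subgroup.mem_subgroupOf]
      apply Subgroup.subset_closure
      refine hPSP r hrπ _ (hPall r hrπ _ y.2 ?_)
      obtain ⟨k, hk⟩ := S.2 ⟨y, hy⟩
      refine ⟨k, ?_⟩
      have h1 : y ^ r ^ k = 1 := by simpa using congrArg Subtype.val hk
      simpa using congrArg Subtype.val h1
    have h1 : ((Subgroup.closure SP).subgroupOf E).index ∣ (S : Subgroup E).index :=
      Subgroup.index_dvd_of_le hSN
    exact S.not_dvd_index (hrI.trans h1)
  obtain ⟨H, hH⟩ := Subgroup.exists_right_complement'_of_coprime hcop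
  -- the product of the cyclic subgroups
  generalize hSY : {x : Γ | ∃ p ∈ π, x ∈ Y p} = SY
  have hYSY : ∀ p ∈ π, ∀ x ∈ Y p, x ∈ SY := by
    intro p hp x hx
    rw [← hSY]
    exact ⟨p, hp, hx⟩
  have hSYmem : ∀ x ∈ SY, ∃ p ∈ π, x ∈ Y p := by
    intro x hx
    rw [← hSY] at hx
    exact hx
  have hY₀A : Subgroup.closure SY ≤ Subgroup.closure SP := by
    rw [Subgroup.closure_le]
    intro x hx
    obtain ⟨p, hp, hxp⟩ := hSYmem x hx
    exact Subgroup.subset_closure (hPSP p hp x (hYP p hp hxp))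
  have hY₀n : E ≤ Subgroup.normalizer ((Subgroup.closure SY : Subgroup Γ) : Set Γ) := by
    apply le_normalizer_of_conj_mem
    intro g hg a ha
    apply conj_mem_closure SY g _ a ha
    intro x hx
    obtain ⟨p, hp, hxp⟩ := hSYmem x hx
    exact Subgroup.subset_closure
      (hYSY p hp _ ((Subgroup.mem_normalizer_iff.1 (hYn p hp hg) x).1 hxp))
  have hH'E : H.map E.subtype ≤ E := Subgroup.map_subtype_le H
  have hE₀E : Subgroup.closure SY ⊔ H.map E.subtype ≤ E := sup_le (hY₀A.trans hA₀E) hH'E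
  have hdisj : ∀ x : Γ, x ∈ Subgroup.closure SP → x ∈ H.map E.subtype → x = 1 := by
    rintro x hxA ⟨y, hy, rfl⟩
    have h1 : y ∈ (Subgroup.closure SP).subgroupOf E ⊓ H := ⟨Subgroup.mem_subgroupOf.2 hxA, hy⟩
    rw [hH.disjoint.eq_bot, Subgroup.mem_bot] at h1
    rw [h1]
    rfl
  -- elements of order `r` of `∏ Y` lie in `Y r`
  have hYr : ∀ r ∈ π, ∀ x ∈ Subgroup.closure SY, ∃ a ∈ Y r, ∃ b ∈ Subgroup.closure SP,
      x = a * b ∧ ¬ r ∣ orderOf b := by
    intro r hrπ x hx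
    have hr := hπ r hrπ
    induction hx using Subgroup.closure_induction with
    | mem x hx =>
      obtain ⟨p, hp, hxp⟩ := hSYmem x hx
      by_cases hpr : p = r
      · subst hpr
        refine ⟨x, hxp, 1, Subgroup.one_mem _, (mul_one x).symm, ?_⟩
        rw [orderOf_one]
        exact fun h => hr.ne_one (Nat.dvd_one.1 h)
      · refine ⟨1, (Y r).one_mem, x, Subgroup.subset_closure (hPSP p hp x (hYP p hp hxp)),
          (one_mul x).symm, ?_⟩
        intro hrx
        obtain ⟨k, hk⟩ := hPp p hp ⟨x, hYP p hp hxp⟩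
        have hk' : x ^ p ^ k = 1 := by simpa using congrArg Subtype.val hk
        have h1 : r ∣ p ^ k := hrx.trans (orderOf_dvd_of_pow_eq_one hk')
        have h2 : r ∣ p := hr.dvd_of_dvd_pow h1
        exact hpr ((Nat.prime_dvd_prime_iff_eq hr (hπ p hp)).1 h2).symm
    | one =>
      refine ⟨1, (Y r).one_mem, 1, Subgroup.one_mem _, (mul_one 1).symm, ?_⟩
      rw [orderOf_one]
      exact fun h => hr.ne_one (Nat.dvd_one.1 h)
    | mul x y _ _ ihx ihy =>
      obtain ⟨a1, ha1, b1, hb1, rfl, hb1r⟩ := ihx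
      obtain ⟨a2, ha2, b2, hb2, rfl, hb2r⟩ := ihy
      have ha2A : a2 ∈ Subgroup.closure SP :=
        Subgroup.subset_closure (hPSP r hrπ a2 (hYP r hrπ ha2))
      refine ⟨a1 * a2, (Y r).mul_mem ha1 ha2, b1 * b2, Subgroup.mul_mem _ hb1 hb2, ?_,
        not_dvd_orderOf_mul (setLike_mul_comm hb1 hb2) hr hb1r hb2r⟩
      have hc : b1 * a2 = a2 * b1 := setLike_mul_comm hb1 ha2A
      calc a1 * b1 * (a2 * b2) = a1 * (b1 * a2) * b2 := by group
        _ = a1 * (a2 * b1) * b2 := by rw [hc]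
        _ = a1 * a2 * (b1 * b2) := by group
    | inv x _ ihx =>
      obtain ⟨a1, ha1, b1, hb1, rfl, hb1r⟩ := ihx
      have ha1A : a1 ∈ Subgroup.closure SP :=
        Subgroup.subset_closure (hPSP r hrπ a1 (hYP r hrπ ha1))
      refine ⟨a1⁻¹, (Y r).inv_mem ha1, b1⁻¹, Subgroup.inv_mem _ hb1, ?_, by rwa [orderOf_inv]⟩
      have hc : a1 * b1 = b1 * a1 := setLike_mul_comm ha1A hb1
      rw [hc, mul_inv_rev]
  refine ⟨Subgroup.closure SY ⊔ H.map E.subtype, hE₀E, ?_, ?_⟩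
  · -- exponent
    apply Nat.dvd_antisymm
      (Monoid.exponent_dvd_of_monoidHom (Subgroup.inclusion hE₀E) (Subgroup.inclusion_injective hE₀E))
    have hord : ∀ x ∈ Subgroup.closure SY ⊔ H.map E.subtype,
        orderOf x ∣ Monoid.exponent (Subgroup.closure SY ⊔ H.map E.subtype : Subgroup Γ) := by
      intro x hx
      have h1 := Monoid.order_dvd_exponent (⟨x, hx⟩ : (Subgroup.closure SY ⊔ H.map E.subtype :
        Subgroup Γ))
      rwa [Subgroup.orderOf_mk] at h1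
    rw [Nat.dvd_iff_prime_pow_dvd_dvd]
    intro r k hr hrk
    obtain ⟨g, hg⟩ := hr.exists_orderOf_eq_pow_factorization_exponent E
    have hne : Monoid.exponent E ≠ 0 := Monoid.exponent_ne_zero_of_finite
    have hkm : k ≤ (Monoid.exponent E).factorization r :=
      (hr.pow_dvd_iff_le_factorization hne).1 hrk
    refine (pow_dvd_pow r hkm).trans ?_
    generalize (Monoid.exponent E).factorization r = m at hg hkm
    have hg' : orderOf (g : Γ) = r ^ m := by rw [Subgroup.orderOf_coe, hg]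
    rw [← hg']
    by_cases hrπ : r ∈ π
    · have hgP : (g : Γ) ∈ P r :=
        hPall r hrπ _ g.2 ⟨m, by rw [← hg', pow_orderOf_eq_one]⟩
      have h1 : orderOf (g : Γ) ∣ Nat.card (Y r) := orderOf_dvd_of_pow_eq_one (hYexp r hrπ _ hgP)
      haveI := hYc r hrπ
      obtain ⟨y0, hy0⟩ := IsCyclic.exists_generator (α := Y r)
      have h2 : orderOf y0 = Nat.card (Y r) := orderOf_eq_card_of_forall_mem_zpowers hy0
      have h3 : orderOf (y0 : Γ) = Nat.card (Y r) := by rw [Subgroup.orderOf_coe, h2]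
      rw [← h3] at h1
      exact h1.trans (hord _ (Subgroup.mem_sup_left (Subgroup.subset_closure (hYSY r hrπ _ y0.2))))
    · obtain ⟨⟨a, h⟩, hah⟩ := hH.2 g
      have hah' : ((a : E) : Γ) * ((h : E) : Γ) = (g : Γ) := by
        have h1 : (a : E) * (h : E) = g := hah
        rw [← h1]
        rfl
      have haA : ((a : E) : Γ) ∈ Subgroup.closure SP := Subgroup.mem_subgroupOf.1 a.2
      have hhH : ((h : E) : Γ) ∈ H.map E.subtype := ⟨h, h.2, rfl⟩
      obtain ⟨a', ha', e⟩ := pow_mul_mem (Subgroup.closure SP) _ _ haA (hA₀n (h : E).2)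
        (orderOf ((h : E) : Γ))
      rw [pow_orderOf_eq_one, mul_one, hah'] at e
      have h1 : (g : Γ) ^ orderOf ((h : E) : Γ) = 1 := by
        by_contra hne1
        have h2 : orderOf ((g : Γ) ^ orderOf ((h : E) : Γ)) ∣ r ^ m := by
          rw [← hg']
          exact orderOf_pow_dvd _
        obtain ⟨i, -, hi⟩ := (Nat.dvd_prime_pow hr).1 h2
        have hi0 : i ≠ 0 := by
          rintro rfl
          rw [pow_zero, orderOf_eq_one_iff] at hi
          exact hne1 hi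
        apply hrπ
        apply hA₀π _ (e ▸ ha') r hr
        rw [hi]
        exact dvd_pow_self r hi0
      exact (orderOf_dvd_of_pow_eq_one h1).trans (hord _ (Subgroup.mem_sup_right hhH))
  · -- avoiding `NR`
    intro e heE₀ heNR
    obtain ⟨y, hy, h, hh, rfl⟩ := mem_sup_of_le_normalizer _ _ (hH'E.trans hY₀n) e heE₀
    have hh1 : h = 1 := by
      apply hdisj h _ hh
      have e1 : h = y⁻¹ * (y * h) := by group
      rw [e1]
      exact Subgroup.mul_mem _ (Subgroup.inv_mem _ (hY₀A hy)) (hNRA _ heNR)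
    rw [hh1, mul_one] at heNR
    have hy1 : y ≠ 1 := fun h1 => hNR0 (h1 ▸ heNR)
    have hyo : orderOf y ≠ 1 := fun h1 => hy1 (orderOf_eq_one_iff.1 h1)
    obtain ⟨r, hr, hry⟩ := Nat.exists_prime_and_dvd hyo
    have hrπ := hNRπ y heNR r hr hry
    have ho : orderOf (y ^ (orderOf y / r)) = r :=
      orderOf_pow_orderOf_div (orderOf_pos y).ne' hry
    have hne1 : y ^ (orderOf y / r) ≠ 1 := by
      intro h1
      rw [h1, orderOf_one] at ho
      exact hr.ne_one ho.symm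
    have hNR' := hNRpow y heNR _ hne1
    obtain ⟨a, ha, b, hb, e, hbr⟩ := hYr r hrπ _ (Subgroup.pow_mem _ hy (orderOf y / r))
    have hyE : y ^ (orderOf y / r) ∈ E := hNR1 _ hNR'
    have hpr1 : (y ^ (orderOf y / r)) ^ r = 1 := by
      have h1 := pow_orderOf_eq_one (y ^ (orderOf y / r))
      rwa [ho] at h1
    have hyP : y ^ (orderOf y / r) ∈ P r :=
      hPall r hrπ _ hyE ⟨1, by rw [pow_one]; exact hpr1⟩
    have hbP : b ∈ P r := by
      have e1 : b = a⁻¹ * (a * b) := by group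
      rw [e1, ← e]
      exact (P r).mul_mem ((P r).inv_mem (hYP r hrπ ha)) hyP
    have hb1 : b = 1 := by
      obtain ⟨k, hk⟩ := hPp r hrπ ⟨b, hbP⟩
      have hk' : b ^ r ^ k = 1 := by simpa using congrArg Subtype.val hk
      obtain ⟨i, -, hi⟩ := (Nat.dvd_prime_pow hr).1 (orderOf_dvd_of_pow_eq_one hk')
      rcases Nat.eq_zero_or_pos i with h0 | hpos
      · rw [h0, pow_zero] at hi
        exact orderOf_eq_one_iff.1 hi
      · exact absurd (hi ▸ dvd_pow_self r hpos.ne') hbr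
    rw [hb1, mul_one] at e
    exact hYNR r hrπ _ (e ▸ ha) hNR'

end Cfsg.Agent.Lib.Helper32.BG12PEA
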