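import Mathlib
import Cfsg.Agent.S0051

/-!
# S1421 piece PEN (helper32): a subgroup of full exponent avoiding a normal subgroup of order `p`

`assemble_na`: `Z ◁ E` of order `p`, the Sylow `p`-subgroups of `E` abelian, no `p`-th power of an
element of `E` is a nontrivial element of `Z`, and some element of order `p` of `E` lies outside
`Z`.  Then `E` has a subgroup `E₀` with `E₀ ⊓ Z = ⊥` and the same exponent as `E`
(complement of `Z` in a Sylow `p`-subgroup, then Gaschütz).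
-/

set_option autoImplicit false
set_option linter.style.haveILetI false

namespace Cfsg.Agent.Lib.Helper32.BG12PEN

/-- in a finite commutative group, a subgroup meeting the `p`-th powers trivially and such that
`y ^ p ∈ Z → y ^ p = 1` has a complement -/
theorem exists_compl_of_comm {A : Type*} [Group A] [Finite A] (hcomm : ∀ a b : A, a * b = b * a)
    (Z : Subgroup A) {p : ℕ} [Fact p.Prime] (hZ : ∀ y : A, y ^ p ∈ Z → y ^ p = 1) :
    ∃ H : Subgroup A, H ⊓ Z = ⊥ ∧ ∀ x : A, ∃ h ∈ H, ∃ z ∈ Z, h * z = x := by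
  have hp : p.Prime := Fact.out
  have hnorm : ∀ K : Subgroup A, K.Normal := fun K =>
    ⟨fun n hn g => by rw [hcomm g n, mul_inv_cancel_right]; exact hn⟩
  haveI := hnorm Z
  let pw : A →* A := MonoidHom.mk' (fun y => y ^ p) (fun a b => Commute.mul_pow (hcomm a b) p)
  let S : Set (Subgroup A) := {H | H ⊓ Z = ⊥ ∧ ∀ y : A, y ^ p ∈ H}
  have hSne : S.Nonempty := by
    refine ⟨pw.range, ?_, ?_⟩
    · rw [eq_bot_iff]
      rintro x ⟨⟨y, rfl⟩, hx⟩
      exact hZ y hx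
    · intro y
      exact ⟨y, rfl⟩
  obtain ⟨H0, ⟨hH0Z, hH0p⟩, hmax⟩ := (Set.toFinite S).exists_maximal hSne
  refine ⟨H0, hH0Z, ?_⟩
  intro v
  rw [← Subgroup.mem_sup_of_normal_right]
  by_contra hv
  haveI := hnorm (Subgroup.zpowers v)
  have hH1 : H0 ⊔ Subgroup.zpowers v ∈ S := by
    refine ⟨?_, fun y => Subgroup.mem_sup_left (hH0p y)⟩
    rw [eq_bot_iff]
    rintro x ⟨hx1, hxZ⟩
    rw [Subgroup.mem_bot]
    obtain ⟨h, hh, w, hw, rfl⟩ := Subgroup.mem_sup_of_normal_right.1 hx1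
    obtain ⟨i, rfl⟩ := Subgroup.mem_zpowers_iff.1 hw
    have hvi : v ^ i ∈ H0 ⊔ Z := by
      have e : v ^ i = h⁻¹ * (h * v ^ i) := by group
      rw [e]
      exact Subgroup.mul_mem_sup (H0.inv_mem hh) hxZ
    by_cases hpi : (p : ℤ) ∣ i
    · obtain ⟨c, rfl⟩ := hpi
      have h1 : v ^ ((p : ℤ) * c) ∈ H0 := by
        rw [zpow_mul, zpow_natCast]
        exact H0.zpow_mem (hH0p v) c
      have h2 : h * v ^ ((p : ℤ) * c) ∈ H0 ⊓ Z := ⟨H0.mul_mem hh h1, hxZ⟩
      rw [hH0Z] at h2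
      exact h2
    · exfalso
      apply hv
      have hcop : IsCoprime (p : ℤ) i :=
        (Nat.prime_iff_prime_int.1 hp).irreducible.coprime_iff_not_dvd.2 hpi
      obtain ⟨a, b, hab⟩ := hcop
      have e : v = (v ^ p) ^ a * (v ^ i) ^ b := by
        rw [← zpow_natCast v p, ← zpow_mul, ← zpow_mul, ← zpow_add, mul_comm (p : ℤ) a,
          mul_comm i b, hab, zpow_one]
      rw [e]
      exact (H0 ⊔ Z).mul_mem ((H0 ⊔ Z).zpow_mem (Subgroup.mem_sup_left (hH0p v)) a)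
        ((H0 ⊔ Z).zpow_mem hvi b)
  have hle : H0 ⊔ Subgroup.zpowers v ≤ H0 := hmax hH1 le_sup_left
  exact hv (Subgroup.mem_sup_left (hle (Subgroup.mem_sup_right (Subgroup.mem_zpowers v))))

/-- powers of a product modulo a normalised subgroup -/
theorem pow_mul_mem {Γ : Type*} [Group Γ] (N : Subgroup Γ) (z h : Γ) (hz : z ∈ N)
    (hh : h ∈ Subgroup.normalizer (N : Set Γ)) (n : ℕ) :
    ∃ z' ∈ N, (z * h) ^ n = z' * h ^ n := by
  induction n with
  | zero => exact ⟨1, N.one_mem, by simp⟩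
  | succ n ih =>
    obtain ⟨z', hz', e⟩ := ih
    have hn : h ^ n ∈ Subgroup.normalizer (N : Set Γ) := Subgroup.pow_mem _ hh n
    refine ⟨z' * (h ^ n * z * (h ^ n)⁻¹), N.mul_mem hz' ((Subgroup.mem_normalizer_iff.1 hn z).1 hz),
      ?_⟩
    rw [pow_succ, e, pow_succ]
    group

/-- the case `E = ⊤` -/
theorem core_na {Γ : Type*} [Group Γ] [Finite Γ] (Z : Subgroup Γ) [Z.Normal] {p : ℕ}
    [Fact p.Prime] (hZc : Nat.card Z = p)
    (hab : ∀ P : Subgroup Γ, IsPGroup p P → ∀ a ∈ P, ∀ b ∈ P, a * b = b * a)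
    (hZ : ∀ y : Γ, y ^ p ∈ Z → y ^ p = 1)
    (hZ2 : ∃ x : Γ, x ^ p = 1 ∧ x ∉ Z) :
    ∃ E₀ : Subgroup Γ, E₀ ⊓ Z = ⊥ ∧ Monoid.exponent E₀ = Monoid.exponent Γ := by
  have hp : p.Prime := Fact.out
  have hZp : IsPGroup p Z := IsPGroup.of_card (n := 1) (by rw [hZc, pow_one])
  obtain ⟨P, hZP⟩ := hZp.exists_le_sylow
  have hPc := hab P P.2
  -- a complement of `Z` in `P`
  obtain ⟨H0, hH0Z, hH0P⟩ := exists_compl_of_comm (A := (P : Subgroup Γ))
    (fun a b => Subtype.ext (hPc a a.2 b b.2)) (Z.subgroupOf P) (p := p) (by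
      intro y hy
      rw [Subgroup.mem_subgroupOf] at hy
      have h1 := hZ (y : Γ) (by simpa using hy)
      exact Subtype.ext (by simpa using h1))
  have hAP : H0.map (P : Subgroup Γ).subtype ≤ P := Subgroup.map_subtype_le H0
  have hAZ : H0.map (P : Subgroup Γ).subtype ⊓ Z = ⊥ := by
    rw [eq_bot_iff]
    rintro x ⟨⟨y, hy, rfl⟩, hxZ⟩
    have h1 : y ∈ H0 ⊓ Z.subgroupOf P := ⟨hy, Subgroup.mem_subgroupOf.2 hxZ⟩
    rw [hH0Z, Subgroup.mem_bot] at h1
    rw [h1]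
    exact Subgroup.one_mem _
  have hZA : Z ⊔ H0.map (P : Subgroup Γ).subtype = P := by
    apply le_antisymm (sup_le hZP hAP)
    intro x hx
    obtain ⟨h, hh, z, hz, e⟩ := hH0P ⟨x, hx⟩
    have e' : x = (h : Γ) * (z : Γ) := by
      have := congrArg Subtype.val e
      simpa using this.symm
    rw [e', sup_comm]
    exact Subgroup.mul_mem_sup ⟨h, hh, rfl⟩ (Subgroup.mem_subgroupOf.1 hz)
  haveI : IsMulCommutative Z := ⟨⟨fun a b => Subtype.ext (hPc a (hZP a.2) b (hZP b.2))⟩⟩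
  have hcop : (Nat.card Z).Coprime (P : Subgroup Γ).index := by
    rw [hZc]
    exact (Nat.Prime.coprime_iff_not_dvd hp).2 P.not_dvd_index
  obtain ⟨H, hH⟩ := Cfsg.Agent.S0051.result Z (P : Subgroup Γ) hZP hcop _ hAP hAZ hZA
  refine ⟨H, by rw [inf_comm]; exact hH.disjoint.eq_bot, ?_⟩
  apply Nat.dvd_antisymm (Monoid.exponent_dvd_of_monoidHom H.subtype H.subtype_injective)
  have key : ∀ g : Γ, (∀ k : ℕ, g ^ k ∈ Z → g ^ k = 1) → orderOf g ∣ Monoid.exponent H := by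
    intro g hg
    obtain ⟨⟨z, h⟩, hzh⟩ := hH.2 g
    have hzh' : (z : Γ) * (h : Γ) = g := hzh
    have hhn : (h : Γ) ^ Monoid.exponent H = 1 := by
      have h1 := Monoid.pow_exponent_eq_one h
      have h2 := congrArg Subtype.val h1
      simpa using h2
    obtain ⟨z', hz', e⟩ := pow_mul_mem Z z h z.2
      (by rw [Subgroup.normalizer_eq_top]; trivial) (Monoid.exponent H)
    apply orderOf_dvd_of_pow_eq_one
    apply hg
    rw [← hzh', e, hhn, mul_one]
    exact hz'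
  rw [Nat.dvd_iff_prime_pow_dvd_dvd]
  intro r k hr hrk
  obtain ⟨g, hg⟩ := hr.exists_orderOf_eq_pow_factorization_exponent Γ
  have hne : Monoid.exponent Γ ≠ 0 := Monoid.exponent_ne_zero_of_finite
  have hkm : k ≤ (Monoid.exponent Γ).factorization r :=
    (hr.pow_dvd_iff_le_factorization hne).1 hrk
  refine (pow_dvd_pow r hkm).trans ?_
  rw [← hg]
  by_cases hcase : ∀ k : ℕ, g ^ k ∈ Z → g ^ k = 1
  · exact key g hcase
  · push Not at hcase
    obtain ⟨j, hjZ, hj1⟩ := hcase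
    have hjp : (g ^ j) ^ p = 1 := by
      have h1 := pow_card_eq_one' (G := Z) (x := ⟨g ^ j, hjZ⟩)
      rw [hZc] at h1
      have h2 := congrArg Subtype.val h1
      simpa using h2
    rw [← pow_mul] at hjp
    have hdvd : orderOf g ∣ j * p := orderOf_dvd_of_pow_eq_one hjp
    have hndvd : ¬ orderOf g ∣ j := fun h => hj1 (orderOf_dvd_iff_pow_eq_one.1 h)
    generalize (Monoid.exponent Γ).factorization r = m at hg hkm
    rw [hg] at hdvd hndvd ⊢
    have hrp : r = p := by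
      by_contra hne'
      have hcop' : Nat.Coprime (r ^ m) p :=
        Nat.Coprime.pow_left m ((Nat.coprime_primes hr hp).2 hne')
      exact hndvd (hcop'.dvd_of_dvd_mul_right hdvd)
    subst hrp
    have hm1 : m = 1 := by
      by_contra hm1
      rcases Nat.lt_or_gt_of_ne hm1 with h0 | h2
      · have hm0 : m = 0 := by omega
        rw [hm0, pow_zero] at hndvd
        exact hndvd (one_dvd _)
      · have h1 : r ^ (m - 1) ∣ j := by
          have e : r ^ m = r ^ (m - 1) * r := by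
            rw [← pow_succ]
            congr 1
            omega
          rw [e] at hdvd
          exact Nat.dvd_of_mul_dvd_mul_right hr.pos hdvd
        have h2' : r ∣ j := (dvd_pow_self r (by omega)).trans h1
        obtain ⟨j', rfl⟩ := h2'
        have h3 := hZ (g ^ j') (by rw [← pow_mul, mul_comm]; exact hjZ)
        apply hj1
        rw [mul_comm, pow_mul]
        exact h3
    rw [hm1, pow_one]
    obtain ⟨x0, hx0p, hx0Z⟩ := hZ2
    have hx01 : x0 ≠ 1 := fun h => hx0Z (h ▸ Z.one_mem)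
    have hx0o : orderOf x0 = r := orderOf_eq_prime hx0p hx01
    rw [← hx0o]
    apply key
    intro k hk
    by_contra hk1
    apply hx0Z
    have hcop' : Nat.Coprime k r := by
      rw [Nat.coprime_comm, Nat.Prime.coprime_iff_not_dvd hr]
      intro hrk'
      apply hk1
      obtain ⟨c, rfl⟩ := hrk'
      rw [pow_mul, hx0p, one_pow]
    obtain ⟨a, -, ha⟩ := Nat.exists_mul_mod_eq_one_of_coprime hcop' hr.one_lt
    have e : x0 = (x0 ^ k) ^ a := by
      rw [← pow_mul, ← pow_mod_orderOf, hx0o, ha, pow_one]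
    rw [e]
    exact Z.pow_mem hk a

/-- **S1421/PEN.** -/
theorem assemble_na {Γ : Type*} [Group Γ] [Finite Γ] (E Z : Subgroup Γ) {p : ℕ} [Fact p.Prime]
    (hZE : Z ≤ E) (hZn : E ≤ Subgroup.normalizer (Z : Set Γ)) (hZc : Nat.card Z = p)
    (hab : ∀ P : Subgroup Γ, P ≤ E → IsPGroup p P → ∀ a ∈ P, ∀ b ∈ P, a * b = b * a)
    (hZ : ∀ y ∈ E, y ^ p ∈ Z → y ^ p = 1)
    (hZ2 : ∃ x ∈ E, x ^ p = 1 ∧ x ∉ Z) :
    ∃ E₀ : Subgroup Γ, E₀ ≤ E ∧ E₀ ⊓ Z = ⊥ ∧ Monoid.exponent E₀ = Monoid.exponent E := by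
  haveI : (Z.subgroupOf E).Normal := (Subgroup.normal_subgroupOf_iff_le_normalizer hZE).2 hZn
  have hZc' : Nat.card (Z.subgroupOf E) = p := by
    rw [Nat.card_congr (Subgroup.subgroupOfEquivOfLe hZE).toEquiv, hZc]
  have hab' : ∀ P : Subgroup E, IsPGroup p P → ∀ a ∈ P, ∀ b ∈ P, a * b = b * a := by
    intro P hP a ha b hb
    have h3 := hab (P.map E.subtype) (Subgroup.map_subtype_le P) (hP.map E.subtype) a
      ⟨a, ha, rfl⟩ b ⟨b, hb, rfl⟩
    exact Subtype.ext h3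
  have hZ' : ∀ y : E, y ^ p ∈ Z.subgroupOf E → y ^ p = 1 := by
    intro y hy
    rw [Subgroup.mem_subgroupOf] at hy
    have h3 := hZ y y.2 (by simpa using hy)
    exact Subtype.ext (by simpa using h3)
  have hZ2' : ∃ x : E, x ^ p = 1 ∧ x ∉ Z.subgroupOf E := by
    obtain ⟨x, hxE, hxp, hxZ⟩ := hZ2
    exact ⟨⟨x, hxE⟩, Subtype.ext (by simpa using hxp), fun h => hxZ (Subgroup.mem_subgroupOf.1 h)⟩
  obtain ⟨E₀, h1, h2⟩ := core_na (Γ := E) (Z.subgroupOf E) hZc' hab' hZ' hZ2'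
  refine ⟨E₀.map E.subtype, Subgroup.map_subtype_le E₀, ?_, ?_⟩
  · rw [eq_bot_iff]
    rintro x ⟨⟨y, hy, rfl⟩, hxZ⟩
    have h3 : y ∈ E₀ ⊓ Z.subgroupOf E := ⟨hy, Subgroup.mem_subgroupOf.2 hxZ⟩
    rw [h1, Subgroup.mem_bot] at h3
    rw [h3]
    exact Subgroup.one_mem _
  · rw [← h2]
    exact (Monoid.exponent_eq_of_mulEquiv
      (E₀.equivMapOfInjective E.subtype E.subtype_injective)).symm

end Cfsg.Agent.Lib.Helper32.BG12PEN
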