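import Mathlib

/-!
# An abelian 2-group whose automorphisms are transitive on involutions is homocyclic
(piece P2 of helper2's split of S3797)
-/

set_option autoImplicit false

namespace Cfsg.Agent.Lib.Helper32.Homocyc

theorem zmod_pow_self (n : ℕ) (x : Multiplicative (ZMod n)) : x ^ n = 1 := by
  have h : Multiplicative.toAdd (x ^ n) = 0 := by
    rw [toAdd_pow, nsmul_eq_mul, ZMod.natCast_self, zero_mul]
  exact Multiplicative.toAdd.injective h

theorem homocyclic_of_transitive {S : Type*} [CommGroup S] [Finite S] (hS : IsPGroup 2 S)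
    (htrans : ∀ x y : S, x ≠ 1 → x ^ 2 = 1 → y ≠ 1 → y ^ 2 = 1 → ∃ a : MulAut S, a x = y) :
    ∃ m r : ℕ, Nonempty (S ≃* (Fin r → Multiplicative (ZMod (2 ^ m)))) := by
  classical
  obtain ⟨ι, inst, n, h₁, ⟨e⟩⟩ := CommGroup.equiv_prod_multiplicative_zmod_of_finite S
  -- the order of `S` is a power of 2
  obtain ⟨K, hK⟩ := (IsPGroup.iff_card (p := 2) (G := S)).mp hS
  have hcard : ∏ i, n i = 2 ^ K := by
    rw [← hK, Nat.card_congr e.toEquiv, Nat.card_pi]
    apply Finset.prod_congr rfl
    intro i _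
    exact (Nat.card_zmod (n i)).symm
  have hk : ∀ i, ∃ k, n i = 2 ^ k := by
    intro i
    have h1 : n i ∣ 2 ^ K := hcard ▸ Finset.dvd_prod_of_mem n (Finset.mem_univ i)
    obtain ⟨k, _, hk⟩ := (Nat.dvd_prime_pow Nat.prime_two).mp h1
    exact ⟨k, hk⟩
  choose k hk using hk
  have hk1 : ∀ i, 1 ≤ k i := by
    intro i
    by_contra h
    have h0 : k i = 0 := by omega
    have := h₁ i
    rw [hk i, h0] at this
    simp at this
  -- generators and involutions
  set g : ∀ j : ι, (∀ i : ι, Multiplicative (ZMod (n i))) :=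
    fun j => Pi.mulSingle j (Multiplicative.ofAdd (1 : ZMod (n j))) with hg
  have hgpow : ∀ j, g j ^ (n j) = 1 := by
    intro j
    rw [hg]
    simp only
    rw [← Pi.mulSingle_pow, zmod_pow_self, Pi.mulSingle_one]
  have hz2 : ∀ j, (g j ^ (2 ^ (k j - 1))) ^ 2 = 1 := by
    intro j
    rw [← pow_mul, ← pow_succ, Nat.sub_add_cancel (hk1 j), ← hk j]
    exact hgpow j
  have hz1 : ∀ j, g j ^ (2 ^ (k j - 1)) ≠ 1 := by
    intro j h
    have h2 := congrFun h j
    rw [Pi.pow_apply, hg] at h2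
    simp only [Pi.mulSingle_eq_same, Pi.one_apply] at h2
    have h3 : Multiplicative.toAdd ((Multiplicative.ofAdd (1 : ZMod (n j))) ^ (2 ^ (k j - 1))) = 0 := by
      rw [h2]; rfl
    rw [toAdd_pow, toAdd_ofAdd, nsmul_eq_mul, mul_one] at h3
    have h4 : n j ∣ 2 ^ (k j - 1) := (ZMod.natCast_eq_zero_iff _ _).mp h3
    rw [hk j] at h4
    have h5 := Nat.le_of_dvd (by positivity) h4
    have h6 : 2 ^ (k j - 1) < 2 ^ (k j) := Nat.pow_lt_pow_right (by norm_num) (by have := hk1 j; omega)
    omega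
  -- all exponents agree
  have hkeq : ∀ i j, ¬ k i < k j := by
    intro i j hij
    obtain ⟨a, ha⟩ := htrans (e.symm (g j ^ (2 ^ (k j - 1)))) (e.symm (g i ^ (2 ^ (k i - 1))))
      (by
        intro h
        apply hz1 j
        have := congrArg e h
        simpa using this)
      (by rw [← map_pow, hz2 j, map_one])
      (by
        intro h
        apply hz1 i
        have := congrArg e h
        simpa using this)
      (by rw [← map_pow, hz2 i, map_one])
    -- `w ^ (2 ^ (k j - 1)) = z_i`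
    set w := e (a (e.symm (g j))) with hw
    have hwpow : w ^ (2 ^ (k j - 1)) = g i ^ (2 ^ (k i - 1)) := by
      rw [hw, ← map_pow, ← map_pow, ← map_pow, ha, MulEquiv.apply_symm_apply]
    have h1 : (w i) ^ (2 ^ (k j - 1)) = 1 := by
      have h2 : 2 ^ (k j - 1) = n i * 2 ^ (k j - 1 - k i) := by
        rw [hk i, ← pow_add]
        congr 1
        omega
      rw [h2, pow_mul, zmod_pow_self, one_pow]
    have h3 := congrFun hwpow i
    rw [Pi.pow_apply, h1] at h3
    apply hz1 i
    funext i'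
    by_cases hi' : i' = i
    · subst hi'
      rw [← h3]; rfl
    · rw [Pi.pow_apply, hg]
      simp only [Pi.one_apply]
      rw [Pi.mulSingle_eq_of_ne hi', one_pow]
  have hn : ∃ m, n = fun _ => 2 ^ m := by
    rcases isEmpty_or_nonempty ι with hι | ⟨⟨i₀⟩⟩
    · exact ⟨0, funext fun i => (hι.false i).elim⟩
    · refine ⟨k i₀, funext fun i => ?_⟩
      rw [hk i]
      congr 1
      have h1 := hkeq i i₀
      have h2 := hkeq i₀ i
      omega
  obtain ⟨m, hm⟩ := hn
  subst hm
  exact ⟨m, Fintype.card ι, ⟨e.trans (MulEquiv.arrowCongr (Fintype.equivFin ι) (MulEquiv.refl _))⟩⟩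

end Cfsg.Agent.Lib.Helper32.Homocyc
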