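import Mathlib
import Cfsg.Agent.Lib.Helper98.CExt
import Cfsg.Agent.Lib.Helper98.StNF

/-!
# Splitting a central extension of `SL(2, F)` with abelian root-group preimages (helper32)

Piece S2086/PB2.  Let `φ : Y →* SL(2, F)` be surjective with central kernel, `|F| ≥ 4`, and assume
that any two lifts of upper unitriangular matrices commute, and the same for lower ones.  Then `φ`
has a section.  The lifts are `X t = ⁅h, lift (u (t / (a² - 1)))⁆`, where `h` lifts a diagonal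
matrix `d a` with `a² ≠ 1`; they satisfy the rank-one Steinberg relations.
-/

set_option autoImplicit false
set_option linter.unusedSimpArgs false
set_option linter.unreachableTactic false
set_option linter.unusedTactic false
set_option linter.unnecessarySeqFocus false

namespace Cfsg.Agent.Lib.Helper32.SL2Split

open Matrix MatrixGroups
open Cfsg.Agent.Lib.Helper98.SL2Sub Cfsg.Agent.Lib.Helper98.CExt
open Cfsg.Agent.Lib.Helper98.Steinberg
open scoped commutatorElement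

section prelim

variable {F : Type*} [Field F]

lemma exists_sq_ne_one' [Fintype F] (h4 : 4 ≤ Fintype.card F) : ∃ a : F, a ≠ 0 ∧ a ^ 2 ≠ 1 := by
  classical
  by_contra hcon
  push Not at hcon
  have hsub : (Finset.univ : Finset F) ⊆ {0, 1, -1} := by
    intro x _
    by_cases hx : x = 0
    · simp [hx]
    · have h1 := hcon x hx
      have h2 : (x - 1) * (x + 1) = 0 := by
        have : (x - 1) * (x + 1) = x ^ 2 - 1 := by ring
        rw [this, h1, sub_self]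
      rcases mul_eq_zero.mp h2 with h | h
      · simp [sub_eq_zero.mp h]
      · simp [eq_neg_of_add_eq_zero_left h]
  have h5 := Finset.card_le_card hsub
  have h3 : ({0, 1, -1} : Finset F).card ≤ 3 := Finset.card_le_three
  rw [Finset.card_univ] at h5
  omega

lemma comm_mul_right' {G : Type*} [Group G] (h y1 y2 : G) :
    ⁅h, y1 * y2⁆ = ⁅h, y1⁆ * (y1 * ⁅h, y2⁆ * y1⁻¹) := by
  simp only [commutatorElement_def]; group

lemma comm_inv_left' {G : Type*} [Group G] (h y : G) :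
    ⁅h⁻¹, y⁆ = h⁻¹ * ⁅h, y⁆⁻¹ * h := by
  simp only [commutatorElement_def]; group

lemma d_comm_u (a : F) (ha : a ≠ 0) (z : F) : ⁅d a ha, u z⁆ = u ((a ^ 2 - 1) * z) := by
  rw [commutatorElement_def, d_u_d, u_inv, u_mul]; congr 1; ring

lemma d_comm_l (a : F) (ha : a ≠ 0) (z : F) : ⁅d a ha, l z⁆ = l (((a⁻¹) ^ 2 - 1) * z) := by
  rw [commutatorElement_def, d_l_d', l_inv, l_mul]; congr 1; ring

lemma dinv_u_d (a : F) (ha : a ≠ 0) (z : F) :
    (d a ha)⁻¹ * u z * (d a ha)⁻¹⁻¹ = u ((a⁻¹) ^ 2 * z) := by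
  rw [d_inv, d_u_d]

lemma dinv_l_d (a : F) (ha : a ≠ 0) (z : F) :
    (d a ha)⁻¹ * l z * (d a ha)⁻¹⁻¹ = l (a ^ 2 * z) := by
  rw [inv_inv, d_l_d]

lemma nX_conj_d (t : F) (ht : t ≠ 0) (a : F) (ha : a ≠ 0) :
    (u t * l (-t⁻¹) * u t) * d a ha * (u t * l (-t⁻¹) * u t)⁻¹ = (d a ha)⁻¹ := by
  apply sl2_ext <;> simp [mul00, mul01, mul10, mul11, inv00, inv01, inv10, inv11, ha, ht] <;>
    field_simp <;> ring

lemma nX_conj_u (t : F) (ht : t ≠ 0) (z : F) :
    (u t * l (-t⁻¹) * u t) * u z * (u t * l (-t⁻¹) * u t)⁻¹ = l (-((t⁻¹) ^ 2 * z)) := by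
  apply sl2_ext <;> simp [mul00, mul01, mul10, mul11, inv00, inv01, inv10, inv11, ht] <;>
    field_simp <;> ring

lemma nY_conj_d (t : F) (ht : t ≠ 0) (a : F) (ha : a ≠ 0) :
    (l t * u (-t⁻¹) * l t) * d a ha * (l t * u (-t⁻¹) * l t)⁻¹ = (d a ha)⁻¹ := by
  apply sl2_ext <;> simp [mul00, mul01, mul10, mul11, inv00, inv01, inv10, inv11, ha, ht] <;>
    field_simp <;> ring

lemma nY_conj_l (t : F) (ht : t ≠ 0) (z : F) :
    (l t * u (-t⁻¹) * l t) * l z * (l t * u (-t⁻¹) * l t)⁻¹ = u (-((t⁻¹) ^ 2 * z)) := by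
  apply sl2_ext <;> simp [mul00, mul01, mul10, mul11, inv00, inv01, inv10, inv11, ht] <;>
    field_simp <;> ring

end prelim

section main

variable {F : Type*} [Field F]

theorem split_two_of_symbol [Fintype F] (h4 : 4 ≤ Fintype.card F)
    {Y : Type*} [Group Y] (φ : Y →* SL(2, F)) (hφ : Function.Surjective φ)
    (hc : φ.ker ≤ Subgroup.center Y)
    (hu : ∀ (t s : F) (y₁ y₂ : Y), φ y₁ = u t → φ y₂ = u s → y₁ * y₂ = y₂ * y₁)
    (hl : ∀ (t s : F) (y₁ y₂ : Y), φ y₁ = l t → φ y₂ = l s → y₁ * y₂ = y₂ * y₁) :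
    ∃ s : SL(2, F) →* Y, ∀ g, φ (s g) = g := by
  obtain ⟨a, ha0, ha1⟩ := exists_sq_ne_one' h4
  have hc0 : a ^ 2 - 1 ≠ 0 := sub_ne_zero.mpr ha1
  have hc20 : (a⁻¹) ^ 2 - 1 ≠ 0 := by
    intro h
    apply ha1
    have h1 : (a⁻¹) ^ 2 = 1 := sub_eq_zero.mp h
    have h2 : a ^ 2 * (a⁻¹) ^ 2 = 1 := by field_simp
    rw [h1, mul_one] at h2
    exact h2
  have hcc : a ^ 2 * ((a⁻¹) ^ 2 - 1) = -(a ^ 2 - 1) := by field_simp; ring
  have hcc2 : (a⁻¹) ^ 2 * (a ^ 2 - 1) = -((a⁻¹) ^ 2 - 1) := by field_simp; ring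
  obtain ⟨h, hh⟩ := hφ (d a ha0)
  generalize hcdef : a ^ 2 - 1 = c at hc0 hcc hcc2
  generalize hc2def : (a⁻¹) ^ 2 - 1 = c2 at hc20 hcc hcc2
  -- the lifts
  have Xeq : ∀ (z : F) (y : Y), φ y = u z → kap φ hφ (d a ha0) (u z) = ⁅h, y⁆ :=
    fun z y hy => kap_eq' φ hc hφ hh hy
  have Yeq : ∀ (z : F) (y : Y), φ y = l z → kap φ hφ (d a ha0) (l z) = ⁅h, y⁆ :=
    fun z y hy => kap_eq' φ hc hφ hh hy
  have mapX : ∀ z : F, φ (kap φ hφ (d a ha0) (u z)) = u (c * z) := by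
    intro z
    rw [map_kap, d_comm_u, hcdef]
  have mapY : ∀ z : F, φ (kap φ hφ (d a ha0) (l z)) = l (c2 * z) := by
    intro z
    rw [map_kap, d_comm_l, hc2def]
  -- additivity in the second argument
  have addX' : ∀ z z' : F, kap φ hφ (d a ha0) (u z) * kap φ hφ (d a ha0) (u z') =
      kap φ hφ (d a ha0) (u (z + z')) := by
    intro z z'
    obtain ⟨y1, hy1⟩ := hφ (u z)
    obtain ⟨y2, hy2⟩ := hφ (u z')
    have e12 : φ (y1 * y2) = u (z + z') := by rw [map_mul, hy1, hy2, u_mul]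
    rw [Xeq _ y1 hy1, Xeq _ y2 hy2, Xeq _ _ e12, comm_mul_right']
    have hcomm : y1 * ⁅h, y2⁆ = ⁅h, y2⁆ * y1 := by
      apply hu z (c * z') y1 ⁅h, y2⁆ hy1
      rw [← Xeq _ y2 hy2]
      exact mapX z'
    rw [hcomm]
    group
  have addY' : ∀ z z' : F, kap φ hφ (d a ha0) (l z) * kap φ hφ (d a ha0) (l z') =
      kap φ hφ (d a ha0) (l (z + z')) := by
    intro z z'
    obtain ⟨y1, hy1⟩ := hφ (l z)
    obtain ⟨y2, hy2⟩ := hφ (l z')
    have e12 : φ (y1 * y2) = l (z + z') := by rw [map_mul, hy1, hy2, l_mul]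
    rw [Yeq _ y1 hy1, Yeq _ y2 hy2, Yeq _ _ e12, comm_mul_right']
    have hcomm : y1 * ⁅h, y2⁆ = ⁅h, y2⁆ * y1 := by
      apply hl z (c2 * z') y1 ⁅h, y2⁆ hy1
      rw [← Yeq _ y2 hy2]
      exact mapY z'
    rw [hcomm]
    group
  have zeroX : kap φ hφ (d a ha0) (u (0 : F)) = 1 := by
    have e := addX' 0 0
    rw [add_zero] at e
    exact mul_left_cancel (a := kap φ hφ (d a ha0) (u (0 : F))) (by rw [mul_one]; exact e)
  have zeroY : kap φ hφ (d a ha0) (l (0 : F)) = 1 := by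
    have e := addY' 0 0
    rw [add_zero] at e
    exact mul_left_cancel (a := kap φ hφ (d a ha0) (l (0 : F))) (by rw [mul_one]; exact e)
  have invX : ∀ z : F, (kap φ hφ (d a ha0) (u z))⁻¹ = kap φ hφ (d a ha0) (u (-z)) := by
    intro z
    apply inv_eq_of_mul_eq_one_right
    rw [addX', add_neg_cancel, zeroX]
  have invY : ∀ z : F, (kap φ hφ (d a ha0) (l z))⁻¹ = kap φ hφ (d a ha0) (l (-z)) := by
    intro z
    apply inv_eq_of_mul_eq_one_right
    rw [addY', add_neg_cancel, zeroY]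
  -- conjugation by `h⁻¹`
  have conjX : ∀ z : F, h⁻¹ * kap φ hφ (d a ha0) (u z) * h =
      kap φ hφ (d a ha0) (u ((a⁻¹) ^ 2 * z)) := by
    intro z
    have e := conj_kap φ hc hφ h⁻¹ (d a ha0) (u z)
    rw [inv_inv] at e
    rw [e, map_inv, hh, dinv_u_d]
    congr 1
    group
  have conjY : ∀ z : F, h⁻¹ * kap φ hφ (d a ha0) (l z) * h =
      kap φ hφ (d a ha0) (l (a ^ 2 * z)) := by
    intro z
    have e := conj_kap φ hc hφ h⁻¹ (d a ha0) (l z)
    rw [inv_inv] at e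
    rw [e, map_inv, hh, dinv_l_d]
    congr 1
    group
  -- `kap` at the inverse torus element
  have kinvX : ∀ z : F, kap φ hφ (d a ha0)⁻¹ (u z) = kap φ hφ (d a ha0) (u (-((a⁻¹) ^ 2 * z))) := by
    intro z
    obtain ⟨y, hy⟩ := hφ (u z)
    have e : kap φ hφ (d a ha0)⁻¹ (u z) = ⁅h⁻¹, y⁆ :=
      kap_eq' φ hc hφ (by rw [map_inv, hh]) hy
    rw [e, comm_inv_left', ← Xeq _ y hy, invX, conjX, mul_neg]
  have kinvY : ∀ z : F, kap φ hφ (d a ha0)⁻¹ (l z) = kap φ hφ (d a ha0) (l (-(a ^ 2 * z))) := by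
    intro z
    obtain ⟨y, hy⟩ := hφ (l z)
    have e : kap φ hφ (d a ha0)⁻¹ (l z) = ⁅h⁻¹, y⁆ :=
      kap_eq' φ hc hφ (by rw [map_inv, hh]) hy
    rw [e, comm_inv_left', ← Yeq _ y hy, invY, conjY, mul_neg]
  -- the Steinberg data
  have hX : ∀ t, φ (kap φ hφ (d a ha0) (u (t / c))) = u t := by
    intro t
    rw [mapX]
    congr 1
    field_simp
  have hY : ∀ t, φ (kap φ hφ (d a ha0) (l (t / c2))) = l t := by
    intro t
    rw [mapY]
    congr 1
    field_simp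
  have S : StData (fun t : F => kap φ hφ (d a ha0) (u (t / c)))
      (fun t : F => kap φ hφ (d a ha0) (l (t / c2))) := by
    refine ⟨?_, ?_, ?_, ?_⟩
    · intro t v
      show kap φ hφ (d a ha0) (u (t / c)) * kap φ hφ (d a ha0) (u (v / c)) =
        kap φ hφ (d a ha0) (u ((t + v) / c))
      rw [addX']
      congr 2
      ring
    · intro t v
      show kap φ hφ (d a ha0) (l (t / c2)) * kap φ hφ (d a ha0) (l (v / c2)) =
        kap φ hφ (d a ha0) (l ((t + v) / c2))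
      rw [addY']
      congr 2
      ring
    · intro t v ht
      show (kap φ hφ (d a ha0) (u (t / c)) * kap φ hφ (d a ha0) (l (-t⁻¹ / c2)) *
          kap φ hφ (d a ha0) (u (t / c))) * kap φ hφ (d a ha0) (u (v / c)) *
          (kap φ hφ (d a ha0) (u (t / c)) * kap φ hφ (d a ha0) (l (-t⁻¹ / c2)) *
          kap φ hφ (d a ha0) (u (t / c)))⁻¹ = kap φ hφ (d a ha0) (l (-(t⁻¹ ^ 2 * v) / c2))
      have eW : φ (kap φ hφ (d a ha0) (u (t / c)) * kap φ hφ (d a ha0) (l (-t⁻¹ / c2)) *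
          kap φ hφ (d a ha0) (u (t / c))) = u t * l (-t⁻¹) * u t := by
        rw [map_mul, map_mul, hX, hY]
      rw [conj_kap φ hc hφ, eW, nX_conj_d t ht, nX_conj_u t ht, kinvY]
      congr 2
      have e1 : -(a ^ 2 * -(t⁻¹ ^ 2 * (v / c))) * c2 = -(t⁻¹ ^ 2 * v) * c2 / c * (a ^ 2 * c2) / c2 * (-1) := by
        field_simp
      rw [eq_div_iff hc20, e1, hcc]
      field_simp
    · intro t v ht
      show (kap φ hφ (d a ha0) (l (t / c2)) * kap φ hφ (d a ha0) (u (-t⁻¹ / c)) *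
          kap φ hφ (d a ha0) (l (t / c2))) * kap φ hφ (d a ha0) (l (v / c2)) *
          (kap φ hφ (d a ha0) (l (t / c2)) * kap φ hφ (d a ha0) (u (-t⁻¹ / c)) *
          kap φ hφ (d a ha0) (l (t / c2)))⁻¹ = kap φ hφ (d a ha0) (u (-(t⁻¹ ^ 2 * v) / c))
      have eW : φ (kap φ hφ (d a ha0) (l (t / c2)) * kap φ hφ (d a ha0) (u (-t⁻¹ / c)) *
          kap φ hφ (d a ha0) (l (t / c2))) = l t * u (-t⁻¹) * l t := by
        rw [map_mul, map_mul, hX, hY]
      rw [conj_kap φ hc hφ, eW, nY_conj_d t ht, nY_conj_l t ht, kinvX]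
      congr 2
      have e1 : -(a⁻¹ ^ 2 * -(t⁻¹ ^ 2 * (v / c2))) * c = -(t⁻¹ ^ 2 * v) * c / c2 * (a⁻¹ ^ 2 * c) / c * (-1) := by
        field_simp
      rw [eq_div_iff hc0, e1, hcc2]
      field_simp
  exact Cfsg.Agent.Lib.Helper98.StN.section_of_stData φ S hX hY

end main

end Cfsg.Agent.Lib.Helper32.SL2Split
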